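import Mathlib.GroupTheory.Sylow
import Mathlib.GroupTheory.Commutator.Basic

/-!
An involution `t` with centraliser `⟨t⟩ × E`, `E` having a normal subgroup `E₀` with the
centraliser facts of `PSL(2, q)`, and an abelian Sylow 2-subgroup `S`.
-/

set_option autoImplicit false

namespace CfsgLib.AbPSL44

variable {G : Type*} [Group G]

theorem eq_one_of_odd_of_sq {x : G} (h : Odd (orderOf x)) (h2 : x * x = 1) : x = 1 :=
  orderOf_eq_one_iff.1 (Nat.eq_one_of_dvd_coprimes (Nat.coprime_two_left.2 h)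
    (orderOf_dvd_of_pow_eq_one (by rw [pow_two, h2])) dvd_rfl)

theorem mem_of_sq_mem {x : G} (h : Odd (orderOf x)) {H : Subgroup G} (h2 : x * x ∈ H) : x ∈ H := by
  obtain ⟨k, hk⟩ := h
  have : x = (x * x) ^ (k + 1) := by
    rw [← pow_two, ← pow_mul, show 2 * (k + 1) = orderOf x + 1 by omega, pow_succ,
      pow_orderOf_eq_one, one_mul]
  rw [this]
  exact pow_mem h2 _

theorem odd_orderOf_conj {x : G} (h : Odd (orderOf x)) (g : G) : Odd (orderOf (g * x * g⁻¹)) := by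
  have e := MulEquiv.orderOf_eq (MulAut.conj g) x
  rw [MulAut.conj_apply] at e
  rwa [e]

theorem conj_ne_one {x : G} (h : x ≠ 1) (g : G) : g * x * g⁻¹ ≠ 1 :=
  fun e => h (conj_eq_one_iff.1 e)

theorem commute_conj {x y : G} (h : Commute x y) (g : G) :
    Commute (g * x * g⁻¹) (g * y * g⁻¹) := by
  simpa [MulAut.conj_apply] using h.map (MulAut.conj g).toMonoidHom

theorem inverted_conj {s x : G} (h : s * x * s⁻¹ = x⁻¹) (g : G) :
    (g * s * g⁻¹) * (g * x * g⁻¹) * (g * s * g⁻¹)⁻¹ = (g * x * g⁻¹)⁻¹ := by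
  rw [show (g * x * g⁻¹)⁻¹ = g * x⁻¹ * g⁻¹ by group, ← h]
  group

/-- If `s` fixes and inverts an element of odd order it is trivial. -/
theorem eq_one_of_fix_invert {s x : G} (hx : Odd (orderOf x)) (hc : Commute s x)
    (h : s * x * s⁻¹ = x⁻¹) : x = 1 := by
  rw [hc.eq, mul_inv_cancel_right] at h
  exact eq_one_of_odd_of_sq hx (by nth_rw 2 [h]; exact mul_inv_cancel x)

/-- The configuration. -/
structure Conf (S : Sylow 2 G) (t a b : G) (E E₀ : Subgroup G) : Prop where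
  ab : IsMulCommutative (S : Subgroup G)
  tS : t ∈ S
  aS : a ∈ S
  bS : b ∈ S
  tsq : t * t = 1
  cdec : ∀ c : G, Commute c t → ∃ e ∈ E, c = e ∨ c = t * e
  ecomm : ∀ e ∈ E, Commute e t
  tE : t ∉ E
  e0le : E₀ ≤ E
  e0n : ∀ e ∈ E, ∀ x ∈ E₀, e * x * e⁻¹ ∈ E₀
  cent : ∀ e ∈ E, (∀ x ∈ E₀, Commute e x) → e = 1
  a0 : a ∈ E₀
  b0 : b ∈ E₀
  asq : a * a = 1
  bsq : b * b = 1
  a1 : a ≠ 1
  b1 : b ≠ 1
  ab' : a ≠ b
  ca : ∀ x ∈ E₀, ∀ y ∈ E₀, ∀ z ∈ E₀, x * x ≠ 1 → Commute x y → Commute x z → Commute y z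
  klein : ∀ y ∈ E₀, Commute y a → Commute y b → y = 1 ∨ y = a ∨ y = b ∨ y = a * b
  conj : ∀ u ∈ E₀, ∀ v ∈ E₀, u * u = 1 → u ≠ 1 → v * v = 1 → v ≠ 1 → ∃ g ∈ E₀, g * u * g⁻¹ = v
  memS : ∀ s ∈ S, ∃ r ∈ E₀, r * r = 1 ∧ Commute r a ∧ Commute r b ∧ (s = r ∨ s = t * r)

variable {S : Sylow 2 G} {t a b : G} {E E₀ : Subgroup G}

theorem Conf.commS (h : Conf S t a b E E₀) {x y : G} (hx : x ∈ S) (hy : y ∈ S) : Commute x y :=
  congrArg Subtype.val (h.ab.is_comm.comm (⟨x, hx⟩ : ↥(S : Subgroup G)) ⟨y, hy⟩)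

theorem Conf.mul_sq (h : Conf S t a b E E₀) {x y : G} (hx : x ∈ S) (hy : y ∈ S) (hx2 : x * x = 1)
    (hy2 : y * y = 1) : x * y * (x * y) = 1 := by
  rw [(h.commS hy hx).mul_mul_mul_comm, hx2, hy2, one_mul]

theorem Conf.e0comm (h : Conf S t a b E E₀) {x : G} (hx : x ∈ E₀) : Commute x t :=
  h.ecomm x (h.e0le hx)

/-- Odd elements centralising `t` lie in `E`. -/
theorem Conf.odd_mem (h : Conf S t a b E E₀) {x : G} (hx : Commute x t) (ho : Odd (orderOf x)) :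
    x ∈ E := by
  obtain ⟨e, he, rfl | rfl⟩ := h.cdec x hx
  · exact he
  · refine mem_of_sq_mem ho ?_
    rw [(h.ecomm e he).mul_mul_mul_comm, h.tsq, one_mul]
    exact mul_mem he he

/-- The `E₀`-part of an element of `S`. -/
theorem Conf.comp (h : Conf S t a b E E₀) {s : G} (hs : s ∈ S) :
    ∃ r ∈ E₀, r * r = 1 ∧ ∀ x : G, Commute x t → s * x * s⁻¹ = r * x * r⁻¹ := by
  obtain ⟨r, hr, hr2, -, -, rfl | rfl⟩ := h.memS s hs
  · exact ⟨_, hr, hr2, fun x _ => rfl⟩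
  · refine ⟨r, hr, hr2, fun x hx => ?_⟩
    have hc : Commute (r * x * r⁻¹) t :=
      ((h.e0comm hr).mul_left hx).mul_left (h.e0comm (inv_mem hr))
    calc t * r * x * (t * r)⁻¹ = t * (r * x * r⁻¹) * t⁻¹ := by group
      _ = r * x * r⁻¹ := by rw [← hc.eq, mul_inv_cancel_right]

/-- An element of odd order of `C(t)` inverted by an element of `S` lies in `E₀`. -/
theorem Conf.mem_e0 (h : Conf S t a b E E₀) {x s : G} (hx : Commute x t) (ho : Odd (orderOf x))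
    (hs : s ∈ S) (hi : s * x * s⁻¹ = x⁻¹) : x ∈ E₀ := by
  obtain ⟨r, hr, -, hconj⟩ := h.comp hs
  rw [hconj x hx] at hi
  have hxE := h.odd_mem hx ho
  refine mem_of_sq_mem ho ?_
  have h1 : x * r * x⁻¹ * r⁻¹ ∈ E₀ := mul_mem (h.e0n x hxE r hr) (inv_mem hr)
  have h2 : x * r * x⁻¹ * r⁻¹ = x * x := by
    calc x * r * x⁻¹ * r⁻¹ = x * (r * x * r⁻¹)⁻¹ := by group
      _ = x * x := by rw [hi, inv_inv]
  rwa [h2] at h1

/-- Two commuting odd elements of `C(t)`: one fixed and inverted, the other inverted. -/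
theorem Conf.two (h : Conf S t a b E E₀) {x y s s' : G} (hx : Commute x t) (hy : Commute y t)
    (hox : Odd (orderOf x)) (hoy : Odd (orderOf y)) (hxy : Commute x y) (hx1 : x ≠ 1)
    (hs : s ∈ S) (hsx : Commute s x) (hsy : s * y * s⁻¹ = y⁻¹)
    (hs' : s' ∈ S) (hs'x : s' * x * s'⁻¹ = x⁻¹) : y = 1 := by
  have hx0 := h.mem_e0 hx hox hs' hs'x
  have hy0 := h.mem_e0 hy hoy hs hsy
  obtain ⟨r, hr, -, hconj⟩ := h.comp hs
  rw [hconj y hy] at hsy
  have hrx : Commute x r := by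
    have e : s * x * s⁻¹ = x := by rw [hsx.eq, mul_inv_cancel_right]
    rw [hconj x hx] at e
    exact (mul_inv_eq_iff_eq_mul.1 e).symm
  exact eq_one_of_fix_invert hoy
    (h.ca x hx0 r hr y hy0 (fun e => hx1 (eq_one_of_odd_of_sq hox e)) hrx hxy) hsy

theorem Conf.a_ne_t (h : Conf S t a b E E₀) : a ≠ t := fun e => h.tE (e ▸ h.e0le h.a0)

variable [Finite G]

/-- An element normalising `S` fixes what its square fixes. -/
theorem fix_of_sq (hab : ∀ x ∈ S, ∀ y ∈ S, Commute x y) {n s : G}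
    (hn : n ∈ Subgroup.normalizer ((S : Subgroup G) : Set G)) (hs : s ∈ S)
    (h2 : Commute (n * n) s) : Commute n s := by
  haveI : Fact (Nat.Prime 2) := ⟨Nat.prime_two⟩
  obtain ⟨k, m, hm, hkm⟩ := Nat.exists_eq_pow_mul_and_not_dvd (orderOf_pos n).ne' 2 (by norm_num)
  set z := n ^ m with hz
  have hzp : IsPGroup 2 (Subgroup.zpowers z) := by
    rintro ⟨y, hy⟩
    obtain ⟨i, rfl⟩ := Subgroup.mem_zpowers_iff.1 hy
    refine ⟨k, Subtype.ext ?_⟩
    change (z ^ i) ^ (2 ^ k) = 1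
    rw [← zpow_natCast, ← zpow_mul, mul_comm, zpow_mul, zpow_natCast, hz, ← pow_mul, mul_comm m,
      ← hkm, pow_orderOf_eq_one, one_zpow]
  have hzn : Subgroup.zpowers z ≤ Subgroup.normalizer ((S : Subgroup G) : Set G) :=
    Subgroup.zpowers_le.2 (pow_mem hn m)
  have hzS : z ∈ (S : Subgroup G) := by
    have := S.is_maximal' (hzp.to_sup_of_normal_right' S.isPGroup' hzn) le_sup_right
    rw [← this]
    exact Subgroup.mem_sup_left (Subgroup.mem_zpowers z)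
  have hzs : Commute (n ^ m) s := hab z hzS s hs
  obtain ⟨l, rfl⟩ : Odd m := Nat.odd_iff.2 (by omega)
  rw [pow_succ, pow_mul, pow_two] at hzs
  have := ((h2.pow_left l).inv_left).mul_left hzs
  simpa using this

/-- A set of properties of a 3-cycle on `⟨a, b⟩`. -/
theorem Conf.exists_cycle (h : Conf S t a b E E₀) :
    ∃ n ∈ Subgroup.normalizer ((S : Subgroup G) : Set G), Commute n t ∧
      n * a * n⁻¹ = b ∧ n * b * n⁻¹ = a * b ∧ n * (a * b) * n⁻¹ = a := by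
  haveI : Fact (Nat.Prime 2) := ⟨Nat.prime_two⟩
  obtain ⟨g, hg, hgab⟩ := h.conj a h.a0 b h.b0 h.asq h.a1 h.bsq h.b1
  set C := Subgroup.centralizer ({t} : Set G) with hC
  have hSC : (S : Subgroup G) ≤ C := fun x hx =>
    Subgroup.mem_centralizer_singleton_iff.2 (h.commS hx h.tS)
  have hgC : g ∈ C := Subgroup.mem_centralizer_singleton_iff.2 (h.e0comm hg)
  set SC := S.subtype hSC
  have : IsMulCommutative (SC : Subgroup C) := ⟨⟨fun x y => Subtype.ext (Subtype.ext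
    (h.commS (show (x.1 : G) ∈ S from x.2) (show (y.1 : G) ∈ S from y.2)))⟩⟩
  obtain ⟨n', hn', hne⟩ := Sylow.conj_eq_normalizer_conj_of_mem SC (⟨a, hSC h.aS⟩ : C)
    (⟨g, hgC⟩ : C)⁻¹ h.aS (show (g⁻¹⁻¹ : G) * a * g⁻¹ ∈ (S : Subgroup G) by
      rw [inv_inv, hgab]; exact h.bS)
  have hne' : g * a * g⁻¹ = (n'.1)⁻¹ * a * n'.1 := by
    have := congrArg Subtype.val hne
    simpa using this
  set n := (n'.1)⁻¹ with hn
  have hnN : n ∈ Subgroup.normalizer ((S : Subgroup G) : Set G) := by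
    refine inv_mem (Subgroup.mem_normalizer_iff.2 fun x => ⟨fun hx => ?_, fun hx => ?_⟩)
    · exact (Subgroup.mem_normalizer_iff.1 hn' ⟨x, hSC hx⟩).1 hx
    · have hc : (n' : C).1 * x * (n' : C).1⁻¹ ∈ C := hSC hx
      have hxC : x ∈ C := by
        have := C.mul_mem (C.mul_mem (C.inv_mem n'.2) hc) n'.2
        simpa [mul_assoc] using this
      exact (Subgroup.mem_normalizer_iff.1 hn' ⟨x, hxC⟩).2 hx
  have hnt : Commute n t :=
    (show Commute n'.1 t from Subgroup.mem_centralizer_singleton_iff.1 n'.2).inv_left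
  have h1 : n * a * n⁻¹ = b := by rw [hn, inv_inv, ← hne', hgab]
  have hE : ∀ x ∈ E₀, n * x * n⁻¹ ∈ E₀ := by
    intro x hx
    obtain ⟨e, he, e' | e'⟩ := h.cdec n hnt
    · rw [e']; exact h.e0n e he x hx
    · have hc := h.e0comm (h.e0n e he x hx)
      rw [e', show t * e * x * (t * e)⁻¹ = t * (e * x * e⁻¹) * t⁻¹ by group, ← hc.eq,
        mul_inv_cancel_right]
      exact h.e0n e he x hx
  have hSn : ∀ x ∈ S, n * x * n⁻¹ ∈ S := fun x hx =>
    (Subgroup.mem_normalizer_iff.1 hnN x).1 hx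
  have hb2 : n * b * n⁻¹ = a * b := by
    rcases h.klein _ (hE b h.b0) (h.commS (hSn b h.bS) h.aS) (h.commS (hSn b h.bS) h.bS)
      with e | e | e | e
    · exact absurd (conj_eq_one_iff.1 e) h.b1
    · exfalso
      have h2 : Commute (n * n) a := mul_inv_eq_iff_eq_mul.1 (by
        rw [show n * n * a * (n * n)⁻¹ = n * (n * a * n⁻¹) * n⁻¹ by group, h1, e])
      have h3 := fix_of_sq (fun x hx y hy => h.commS hx hy) hnN h.aS h2
      exact h.ab' (by rw [← h1, h3.eq, mul_inv_cancel_right])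
    · exact absurd (mul_left_cancel (mul_right_cancel (h1.trans e.symm))) h.ab'
    · exact e
  refine ⟨n, hnN, hnt, h1, hb2, ?_⟩
  rw [show n * (a * b) * n⁻¹ = (n * a * n⁻¹) * (n * b * n⁻¹) by group, h1, hb2,
    (h.commS h.aS h.bS).eq, ← mul_assoc, h.bsq, one_mul]

end CfsgLib.AbPSL44
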